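import Cfsg.Agent.QrcE.Sec
import Cfsg.Agent.QrcE.Pass

/-!
# S1824 (qrc-lemma), case `V ≰ O₂(H)`: basic facts (helper55)

`X` is the minimal parabolic `H`, `Q = O₂(X)`, `D = V ∩ Q`, `q = |V : D|`.

* `exists_chief'` : a noncentral normal 2-subgroup involves a noncentral chief factor;
* `noOver_normal` : `|A : A ∩ Q| ≤ |N : C_N(A)|` for a noncentral normal 2-subgroup `N`;
* `Dit` : the situation, with the negation of the conclusion (`q̂ ≤ 2`);
* `Dit.neg` : the negation for subgroups `B ≤ Q` with `[D, B, B] = 1`;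
* `Dit.f_lt` : `|D^g : C(V)| < q` for all `g`;
* `Dit.sq_lt` : `|C_Q(D) : C_Q(V)|² < q`;
* `Dit.central_of_le` : normal subgroups of `X` in `C_Q(D)` are centralised by `O²(X)`.
-/

set_option autoImplicit false
set_option linter.unusedVariables false
set_option linter.unusedSectionVars false

namespace Cfsg.Agent.Qrc

open Subgroup Cfsg Cfsg.Agent.MinSimple.MinParabolic Cfsg.Agent.Omega.FFBr Cfsg.Agent.QrcE
open Cfsg.Agent.PLocal.ThompsonJ
open Cfsg.Agent.ZN.ChoiceBase (cj mem_cj cj_mono cj_le_iff cj_inv_cj cj_cj_inv card_cj cj_inf cj_centralizer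
  isElementaryAbelian_cj)
open scoped commutatorElement

universe u

section

variable {X : Type u} [Group X]

theorem relIndex_pos' [Finite X] (A B : Subgroup X) : 0 < A.relIndex B := by
  rw [Nat.pos_iff_ne_zero, relIndex]
  exact index_ne_zero_of_finite

/-- a minimal normal section which is a 2-group is elementary abelian -/
theorem sq_mem_of_irr [Finite X] {D W : Subgroup X} [hD : D.Normal] [hW : W.Normal] (hp : IsPGroup 2 W) (hlt : D < W)
    (hirr : ∀ N : Subgroup X, N.Normal → D ≤ N → N ≤ W → N = D ∨ N = W) : ∀ w ∈ W, w * w ∈ D := by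
  set W' : Subgroup (X ⧸ D) := W.map (QuotientGroup.mk' D) with hW'
  have hn : W'.Normal := hW.map _ (QuotientGroup.mk'_surjective D)
  let E : Subgroup (X ⧸ D) :=
    { carrier := {e | e ∈ W' ∧ (∀ w ∈ W', w * e = e * w) ∧ e * e = 1}
      one_mem' := ⟨one_mem _, fun w _ => by simp, by simp⟩
      mul_mem' := by
        rintro a b ⟨ha, ha1, ha2⟩ ⟨hb, hb1, hb2⟩
        refine ⟨mul_mem ha hb, fun w hw => ?_, ?_⟩
        · rw [← mul_assoc, ha1 w hw, mul_assoc, hb1 w hw, mul_assoc]
        · calc a * b * (a * b) = a * (b * a) * b := by group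
            _ = a * (a * b) * b := by rw [ha1 b hb]
            _ = (a * a) * (b * b) := by group
            _ = 1 := by rw [ha2, hb2, one_mul]
      inv_mem' := by
        rintro a ⟨ha, ha1, ha2⟩
        have : a⁻¹ = a := inv_eq_of_mul_eq_one_left ha2
        rw [this]
        exact ⟨ha, ha1, ha2⟩ }
  have hmemE : ∀ e : X ⧸ D, e ∈ E ↔ (e ∈ W' ∧ (∀ w ∈ W', w * e = e * w) ∧ e * e = 1) := fun _ => Iff.rfl
  have hEn : E.Normal := by
    refine ⟨fun e he g => ?_⟩
    obtain ⟨h1, h2, h3⟩ := he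
    refine ⟨hn.conj_mem e h1 g, fun w hw => ?_, ?_⟩
    · have h4 := h2 (g⁻¹ * w * g) (by simpa using hn.conj_mem w hw g⁻¹)
      calc w * (g * e * g⁻¹) = g * (g⁻¹ * w * g * e) * g⁻¹ := by group
        _ = g * (e * (g⁻¹ * w * g)) * g⁻¹ := by rw [h4]
        _ = g * e * g⁻¹ * w := by group
    · calc g * e * g⁻¹ * (g * e * g⁻¹) = g * (e * e) * g⁻¹ := by group
        _ = 1 := by rw [h3]; group
  have hpW : IsPGroup 2 W' := hp.map _
  obtain ⟨w, hw, hwD⟩ := SetLike.exists_of_lt hlt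
  have hnt : Nontrivial W' := by
    refine ⟨⟨QuotientGroup.mk' D w, w, hw, rfl⟩, 1, fun h1 => hwD ?_⟩
    exact (QuotientGroup.eq_one_iff w).1 (congrArg Subtype.val h1)
  have : Fact (Nat.Prime 2) := ⟨Nat.prime_two⟩
  have := hpW.center_nontrivial
  obtain ⟨n, hcard⟩ := IsPGroup.iff_card.1 (hpW.to_subgroup (center W'))
  have h2 : 2 ∣ Nat.card (center W') := by
    rw [hcard]
    refine dvd_pow_self 2 ?_
    rintro rfl
    have := Finite.one_lt_card (α := center W')
    rw [hcard] at this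
    simp at this
  obtain ⟨c, hc⟩ := exists_prime_orderOf_dvd_card' 2 h2
  have hc1 : ((c : W') : X ⧸ D) ∈ E := by
    rw [hmemE]
    refine ⟨(c : W').2, fun w hw => ?_, ?_⟩
    · have := mem_center_iff.1 c.2 ⟨w, hw⟩
      exact congrArg Subtype.val this
    · have h3 : c ^ 2 = 1 := by rw [← hc]; exact pow_orderOf_eq_one c
      rw [pow_two] at h3
      exact congrArg (fun z : center W' => ((z : W') : X ⧸ D)) h3
  have hc2 : ((c : W') : X ⧸ D) ≠ 1 := by
    intro h3
    have : c = 1 := Subtype.ext (Subtype.ext h3)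
    rw [this, orderOf_one] at hc
    omega
  have hle : E.comap (QuotientGroup.mk' D) ≤ W := by
    intro x hx
    obtain ⟨w', hw', he⟩ := ((hmemE _).1 hx).1
    have h1 : w'⁻¹ * x ∈ D := QuotientGroup.eq.1 he
    have h2 : x = w' * (w'⁻¹ * x) := by group
    rw [h2]
    exact mul_mem hw' (hlt.le h1)
  have hDE : D ≤ E.comap (QuotientGroup.mk' D) := by
    intro d hd
    rw [mem_comap, show QuotientGroup.mk' D d = 1 from (QuotientGroup.eq_one_iff d).2 hd]
    exact one_mem _
  rcases hirr _ (hEn.comap _) hDE hle with h1 | h1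
  · exfalso
    apply hc2
    obtain ⟨x, hx⟩ := QuotientGroup.mk'_surjective D ((c : W') : X ⧸ D)
    have h3 : x ∈ E.comap (QuotientGroup.mk' D) := by
      rw [mem_comap, hx]
      exact hc1
    rw [h1] at h3
    rw [← hx]
    exact (QuotientGroup.eq_one_iff x).2 h3
  · intro w hw
    rw [← h1, mem_comap] at hw
    have h3 := ((hmemE _).1 hw).2.2
    rw [← map_mul] at h3
    exact (QuotientGroup.eq_one_iff _).1 h3

/-- a noncentral normal 2-subgroup involves a noncentral chief factor -/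
theorem exists_chief' [Finite X] {N : Subgroup X} [hN : N.Normal] (hp : IsPGroup 2 N) (hne : ⁅N, OO X⁆ ≠ ⊥) :
    ∃ D W : Subgroup X, ∃ _ : D.Normal, ∃ _ : W.Normal, W ≤ N ∧ Chief D W := by
  obtain ⟨W, hW⟩ := (Set.toFinite {W : Subgroup X | W.Normal ∧ W ≤ N ∧ ⁅W, OO X⁆ ≠ ⊥}).exists_minimal
    ⟨N, hN, le_rfl, hne⟩
  obtain ⟨hWn, hWN, hWne⟩ := hW.prop
  have hW1 : W ≠ ⊥ := by
    rintro rfl
    exact hWne (commutator_bot_left _)
  obtain ⟨D, hD⟩ := (Set.toFinite {D : Subgroup X | D.Normal ∧ D < W}).exists_maximal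
    ⟨⊥, inferInstance, bot_lt_iff_ne_bot.2 hW1⟩
  have hDn : D.Normal := hD.prop.1
  have hirr : ∀ N : Subgroup X, N.Normal → D ≤ N → N ≤ W → N = D ∨ N = W := fun N hN hDN hNW => by
    by_cases h1 : N = W
    · exact Or.inr h1
    · exact Or.inl (le_antisymm (hD.le_of_ge ⟨hN, lt_of_le_of_ne hNW h1⟩ hDN) hDN)
  have hWp : IsPGroup 2 W := hp.to_le hWN
  refine ⟨D, W, hDn, hWn, hWN, hD.prop.2.le, sq_mem_of_irr hWp hD.prop.2 hirr, hirr, fun h1 => ?_⟩
  apply hWne
  by_contra hcon
  have h2 : ⁅⁅W, OO X⁆, OO X⁆ ≠ ⊥ := by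
    rw [comm_comm_eq hWp]
    exact hcon
  have h3 := hW.le_of_le ⟨inferInstance, (commutator_le_left W (OO X)).trans hWN, h2⟩ (commutator_le_left W (OO X))
  exact absurd hD.prop.2 (not_lt_of_ge (h3.trans h1))

/-- **no over-offender on a noncentral normal 2-subgroup** -/
theorem noOver_normal (hFF : AStmt.{u}) [Finite X] {T : Sylow 2 X} {M : Subgroup X}
    (hm : IsMin (T : Subgroup X) M) {N : Subgroup X} [hN : N.Normal] (hp : IsPGroup 2 N) (hne : ⁅N, OO X⁆ ≠ ⊥)
    {A : Subgroup X} (hAT : A ≤ (T : Subgroup X)) (hA : IsElementaryAbelian 2 A) :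
    (pCore 2 X).relIndex A ≤ (centralizer (A : Set X)).relIndex N := by
  obtain ⟨D, W, hDn, hWn, hWN, hc⟩ := exists_chief' hp hne
  have h1 := noOver_sec hFF hm hc hAT hA
  calc (pCore 2 X).relIndex A ≤ (pCore 2 X).relIndex A * (centralizer (A : Set X)).relIndex D :=
        Nat.le_mul_of_pos_right _ (relIndex_pos' _ _)
    _ ≤ (centralizer (A : Set X)).relIndex W := h1
    _ ≤ (centralizer (A : Set X)).relIndex N := relIndex_le_of_le_right hWN (relIndex_pos' _ _).ne'

/-- the situation: `V ≤ T` elementary abelian, normal in `T`, `V ≰ O₂(X)`, no cubic offender -/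
structure Dit (T : Sylow 2 X) (M V : Subgroup X) : Prop where
  min : IsMin (T : Subgroup X) M
  c2 : centralizer ((pCore 2 X : Subgroup X) : Set X) ≤ pCore 2 X
  VT : V ≤ (T : Subgroup X)
  TV : (T : Subgroup X) ≤ normalizer (V : Set X)
  el : IsElementaryAbelian 2 V
  VQ : ¬ V ≤ pCore 2 X
  no : ¬ CubicParamLE (T : Subgroup X) V 2

/-- `V ∩ O₂(X)` -/
abbrev dd (V : Subgroup X) : Subgroup X := V ⊓ pCore 2 X

theorem comm_le_of_norm {V B : Subgroup X} (hB : B ≤ normalizer (V : Set X)) : ⁅V, B⁆ ≤ V := by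
  rw [commutator_le]
  intro v hv b hb
  have e : ⁅v, b⁆ = v * (b * v⁻¹ * b⁻¹) := by rw [commutatorElement_def]; group
  rw [e]
  exact mul_mem hv ((mem_normalizer_iff.1 (hB hb) _).1 (inv_mem hv))

theorem mem_pCore_conj {t x : X} : x ∈ pCore 2 X ↔ t * x * t⁻¹ ∈ pCore 2 X := by
  constructor
  · exact fun hx => (inferInstance : (pCore 2 X).Normal).conj_mem x hx t
  · intro hx
    have := (inferInstance : (pCore 2 X).Normal).conj_mem _ hx t⁻¹
    simpa [mul_assoc] using this

theorem mem_pCore_conj' {t x : X} : x ∈ pCore 2 X ↔ t⁻¹ * x * t ∈ pCore 2 X := by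
  simpa using mem_pCore_conj (t := t⁻¹) (x := x)

theorem relIndex_cj (g : X) (A B : Subgroup X) : (cj g A).relIndex (cj g B) = A.relIndex B :=
  relIndex_map_map_of_injective A B (MulAut.conj g).injective

theorem cj_pCore (g : X) : cj g (pCore 2 X) = pCore 2 X := by
  ext x
  rw [mem_cj]
  exact mem_pCore_conj'.symm

/-- two elements acting in the same way on `V` -/
theorem comm_mem_of_act {V B : Subgroup X} (hBV : B ≤ normalizer (V : Set X))
    (hcom : ∀ b ∈ B, ∀ b' ∈ B, ∀ v ∈ V, (b * b') * v * (b * b')⁻¹ = (b' * b) * v * (b' * b)⁻¹) :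
    ∀ b ∈ B, ∀ b' ∈ B, b * b' * b⁻¹ * b'⁻¹ ∈ centralizer (V : Set X) := by
  intro b hb b' hb'
  rw [mem_centralizer_iff]
  intro w hw
  have h1 : (b' * b)⁻¹ * w * (b' * b) ∈ V := by
    have := (mem_normalizer_iff.1 (inv_mem (hBV (mul_mem hb' hb))) w).1 hw
    simpa using this
  have h2 := hcom b hb b' hb' _ h1
  have h3 : (b' * b) * ((b' * b)⁻¹ * w * (b' * b)) * (b' * b)⁻¹ = w := by group
  rw [h3] at h2
  have h4 : b * b' * ((b' * b)⁻¹ * w * (b' * b)) * (b * b')⁻¹ =
      (b * b' * b⁻¹ * b'⁻¹) * w * (b * b' * b⁻¹ * b'⁻¹)⁻¹ := by group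
  rw [h4, mul_inv_eq_iff_eq_mul] at h2
  exact h2.symm

theorem comm_normalClosure_le {A N S : Subgroup X} [hA : A.Normal] [hN : N.Normal] (h : ⁅A, S⁆ ≤ N) :
    ⁅A, normalClosure (S : Set X)⁆ ≤ N := by
  set C : Subgroup X := (centralizer ((A.map (QuotientGroup.mk' N) : Subgroup (X ⧸ N)) : Set (X ⧸ N))).comap
    (QuotientGroup.mk' N) with hC
  have hAn : (A.map (QuotientGroup.mk' N)).Normal := hA.map _ (QuotientGroup.mk'_surjective N)
  have hCn : C.Normal := (normal_centralizer (H := A.map (QuotientGroup.mk' N))).comap _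
  have hmem : ∀ x : X, x ∈ C ↔ ∀ a ∈ A, ⁅a, x⁆ ∈ N := by
    intro x
    rw [hC, mem_comap, mem_centralizer_iff]
    constructor
    · intro h1 a ha
      have h2 := h1 _ ⟨a, ha, rfl⟩
      rw [← QuotientGroup.eq_one_iff]
      change QuotientGroup.mk' N ⁅a, x⁆ = 1
      rw [map_commutatorElement, commutatorElement_eq_one_iff_mul_comm]
      exact h2
    · rintro h1 _ ⟨a, ha, rfl⟩
      have h2 : QuotientGroup.mk' N ⁅a, x⁆ = 1 := (QuotientGroup.eq_one_iff _).2 (h1 a ha)
      rw [map_commutatorElement, commutatorElement_eq_one_iff_mul_comm] at h2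
      exact h2
  have h1 : normalClosure (S : Set X) ≤ C := by
    refine normalClosure_le_normal fun s hs => ?_
    exact (hmem s).2 fun a ha => h (commutator_mem_commutator ha hs)
  rw [commutator_le]
  exact fun a ha x hx => (hmem x).1 (h1 hx) a ha

namespace Dit

variable {T : Sylow 2 X} {M V : Subgroup X} (h : Dit T M V)
include h

theorem comm_V_le {B : Subgroup X} (hB : B ≤ pCore 2 X) : ⁅V, B⁆ ≤ dd V :=
  le_inf (comm_le_of_norm (hB.trans ((pCore_le T).trans h.TV)))
    ((commutator_mono le_rfl hB).trans (commutator_le_right _ _))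

/-- `D` is normalised by `T` -/
theorem T_le_dd : (T : Subgroup X) ≤ normalizer ((dd V : Subgroup X) : Set X) := by
  intro t ht
  rw [mem_normalizer_iff]
  intro x
  have h1 := mem_normalizer_iff.1 (h.TV ht) x
  exact and_congr h1 mem_pCore_conj

theorem Q_le_dd : pCore 2 X ≤ normalizer ((dd V : Subgroup X) : Set X) := (pCore_le T).trans h.T_le_dd

/-- `Q` normalises the conjugates of `D` -/
theorem Q_le_cj (g : X) : pCore 2 X ≤ normalizer ((cj g (dd V) : Subgroup X) : Set X) := by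
  have h1 := cj_mono g h.Q_le_dd
  rw [cj_pCore, ZN.ChoiceBase.cj_normalizer] at h1
  exact h1

theorem cj_le_Q (g : X) : cj g (dd V) ≤ pCore 2 X := by
  have h1 := cj_mono g (inf_le_right : dd V ≤ pCore 2 X)
  rwa [cj_pCore] at h1

theorem elD : IsElementaryAbelian 2 (dd V) := isElementaryAbelian_mono h.el inf_le_left

theorem elcj (g : X) : IsElementaryAbelian 2 (cj g (dd V)) := isElementaryAbelian_cj g h.elD

/-- **the negation of `q̂ ≤ 2` for subgroups of `Q`** -/
theorem neg [Finite X] {B : Subgroup X} (hBQ : B ≤ pCore 2 X) (ne : ¬ B ≤ centralizer (V : Set X))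
    (sq : ∀ b ∈ B, b ^ 2 ∈ centralizer (V : Set X))
    (com : ∀ b ∈ B, ∀ b' ∈ B, b * b' * b⁻¹ * b'⁻¹ ∈ centralizer (V : Set X))
    (cub : ⁅⁅dd V, B⁆, B⁆ = ⊥) :
    ((centralizer (V : Set X)).relIndex B) ^ 2 <
      (pCore 2 X).relIndex V * (centralizer (B : Set X)).relIndex (dd V) := by
  by_contra hcon
  rw [not_lt] at hcon
  refine h.no ⟨B, hBQ.trans (pCore_le T), ⟨ne, sq, com⟩, ?_, ?_⟩
  · rw [← le_bot_iff, ← cub]
    exact commutator_mono (commutator_mono (h.comm_V_le hBQ) le_rfl) le_rfl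
  · refine le_trans ?_ hcon
    have h1 := relIndex_mul_relIndex (dd V ⊓ centralizer (B : Set X)) (dd V) V inf_le_left inf_le_left
    have h2 : (dd V ⊓ centralizer (B : Set X)).relIndex (dd V) = (centralizer (B : Set X)).relIndex (dd V) :=
      inf_relIndex_left _ _
    have h3 : (dd V).relIndex V = (pCore 2 X).relIndex V := inf_relIndex_left _ _
    rw [h2, h3] at h1
    rw [mul_comm, h1]
    exact relIndex_le_of_le_left (inf_le_inf_right _ inf_le_left) (relIndex_pos' _ _).ne'

theorem one_lt [Finite X] : 1 < (pCore 2 X).relIndex V := by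
  have h1 := relIndex_pos' (pCore 2 X) V
  rcases Nat.lt_or_ge 1 ((pCore 2 X).relIndex V) with h2 | h2
  · exact h2
  · exact absurd (relIndex_eq_one.1 (le_antisymm h2 h1)) h.VQ

theorem neg_el [Finite X] {B : Subgroup X} (hBQ : B ≤ pCore 2 X) (ne : ¬ B ≤ centralizer (V : Set X))
    (hB : IsElementaryAbelian 2 B) (cub : ⁅⁅dd V, B⁆, B⁆ = ⊥) :
    ((centralizer (V : Set X)).relIndex B) ^ 2 <
      (pCore 2 X).relIndex V * (centralizer (B : Set X)).relIndex (dd V) := by
  refine h.neg hBQ ne (fun b hb => ?_) (fun b hb b' hb' => ?_) cub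
  · rw [hB.2 b hb]; exact one_mem _
  · have : b * b' * b⁻¹ * b'⁻¹ = 1 := by
      rw [(isElementaryAbelian_iff.1 hB).1 b hb b' hb']; group
    rw [this]; exact one_mem _

/-- `|D^g : C(V)|` -/
theorem cent_le [Finite X] (g : X) : (centralizer ((cj g (dd V) : Subgroup X) : Set X)).relIndex (dd V) ≤
    (centralizer (V : Set X)).relIndex (cj g⁻¹ (dd V)) := by
  have h1 : centralizer ((cj g V : Subgroup X) : Set X) ≤ centralizer ((cj g (dd V) : Subgroup X) : Set X) :=
    centralizer_le (cj_mono g inf_le_left)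
  refine (relIndex_le_of_le_left h1 (relIndex_pos' _ _).ne').trans (le_of_eq ?_)
  rw [← relIndex_cj g⁻¹, cj_centralizer, cj_inv_cj]

theorem comm_cj (g : X) : ⁅⁅dd V, cj g (dd V)⁆, cj g (dd V)⁆ = ⊥ := by
  have h1 : ⁅dd V, cj g (dd V)⁆ ≤ cj g (dd V) := by
    rw [commutator_comm]
    exact comm_le_of_norm (inf_le_right.trans (h.Q_le_cj g))
  rw [← le_bot_iff]
  refine (commutator_mono h1 le_rfl).trans ?_
  rw [le_bot_iff, comm_eq_bot_iff]
  exact fun a ha b hb => (isElementaryAbelian_iff.1 (h.elcj g)).1 a ha b hb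

/-- **`|D^g : C(V)| < |V : D|`** -/
theorem f_lt [Finite X] (g : X) : (centralizer (V : Set X)).relIndex (cj g (dd V)) < (pCore 2 X).relIndex V := by
  have key : ∀ g : X, (centralizer (V : Set X)).relIndex (cj g⁻¹ (dd V)) ≤
      (centralizer (V : Set X)).relIndex (cj g (dd V)) →
      (centralizer (V : Set X)).relIndex (cj g (dd V)) < (pCore 2 X).relIndex V := by
    intro g hg
    by_contra hcon
    rw [not_lt] at hcon
    have hne : ¬ cj g (dd V) ≤ centralizer (V : Set X) := by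
      intro h1
      rw [relIndex_eq_one.2 h1] at hcon
      exact absurd h.one_lt (not_lt_of_ge hcon)
    have h1 := h.neg_el (h.cj_le_Q g) hne (h.elcj g) (h.comm_cj g)
    have h2 := (h.cent_le g).trans hg
    have h3 : (pCore 2 X).relIndex V * (centralizer ((cj g (dd V) : Subgroup X) : Set X)).relIndex (dd V) ≤
        (centralizer (V : Set X)).relIndex (cj g (dd V)) ^ 2 := by
      rw [pow_two]
      exact Nat.mul_le_mul hcon h2
    omega
  rcases le_total ((centralizer (V : Set X)).relIndex (cj g⁻¹ (dd V)))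
      ((centralizer (V : Set X)).relIndex (cj g (dd V))) with h1 | h1
  · exact key g h1
  · refine lt_of_le_of_lt h1 (key g⁻¹ ?_)
    rwa [inv_inv]

/-- **`|C_Q(D) : C_Q(V)|² < |V : D|`** -/
theorem sq_lt [Finite X] :
    ((centralizer (V : Set X)).relIndex (pCore 2 X ⊓ centralizer ((dd V : Subgroup X) : Set X))) ^ 2 <
      (pCore 2 X).relIndex V := by
  set B : Subgroup X := pCore 2 X ⊓ centralizer ((dd V : Subgroup X) : Set X) with hB
  by_cases hne : B ≤ centralizer (V : Set X)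
  · rw [relIndex_eq_one.2 hne, one_pow]
    exact h.one_lt
  have hBV : B ≤ normalizer (V : Set X) := inf_le_left.trans ((pCore_le T).trans h.TV)
  -- `b v b⁻¹ = e v`
  have key : ∀ b ∈ B, ∀ v ∈ V, ∃ e ∈ dd V, b * v * b⁻¹ = e * v ∧ ∀ b' ∈ B, b' * e * b'⁻¹ = e := by
    intro b hb v hv
    refine ⟨⁅b, v⁆, ?_, by rw [commutatorElement_def]; group, ?_⟩
    · have h1 := h.comm_V_le (B := B) inf_le_left (commutator_mem_commutator hv hb)
      rw [← commutatorElement_inv]
      exact inv_mem h1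
    · intro b' hb'
      have h1 : ⁅b, v⁆ ∈ dd V := by
        have h1 := h.comm_V_le (B := B) inf_le_left (commutator_mem_commutator hv hb)
        rw [← commutatorElement_inv]
        exact inv_mem h1
      have h2 := mem_centralizer_iff.1 hb'.2 _ h1
      rw [← h2]
      group
  have hD := isElementaryAbelian_iff.1 h.elD
  have h1 := h.neg (B := B) inf_le_left hne ?_ ?_ ?_
  · have h2 : (centralizer (B : Set X)).relIndex (dd V) = 1 :=
      relIndex_eq_one.2 (le_centralizer_iff.1 inf_le_right)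
    rwa [h2, mul_one] at h1
  · intro b hb
    rw [mem_centralizer_iff]
    intro v hv
    obtain ⟨e, he, hbe, hc⟩ := key b hb v hv
    have h2 : b ^ 2 * v * (b ^ 2)⁻¹ = v := by
      have hee : e * e = 1 := by
        have := hD.2 e he
        rwa [pow_two] at this
      calc b ^ 2 * v * (b ^ 2)⁻¹ = b * (b * v * b⁻¹) * b⁻¹ := by rw [pow_two, mul_inv_rev]; simp only [mul_assoc]
        _ = b * (e * v) * b⁻¹ := by rw [hbe]
        _ = (b * e * b⁻¹) * (b * v * b⁻¹) := by group
        _ = e * (e * v) := by rw [hc b hb, hbe]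
        _ = v := by rw [← mul_assoc, hee, one_mul]
    rw [mul_inv_eq_iff_eq_mul] at h2
    exact h2.symm
  · refine comm_mem_of_act hBV ?_
    intro b hb b' hb' v hv
    obtain ⟨e, he, hbe, hc⟩ := key b hb v hv
    obtain ⟨e', he', hbe', hc'⟩ := key b' hb' v hv
    calc (b * b') * v * (b * b')⁻¹ = b * (b' * v * b'⁻¹) * b⁻¹ := by group
      _ = (b * e' * b⁻¹) * (b * v * b⁻¹) := by rw [hbe']; group
      _ = e' * (e * v) := by rw [hc' b hb, hbe]
      _ = e * (e' * v) := by rw [← mul_assoc, hD.1 e' he' e he, mul_assoc]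
      _ = (b' * e * b'⁻¹) * (b' * v * b'⁻¹) := by rw [hc b' hb', hbe']
      _ = b' * (e * v) * b'⁻¹ := by group
      _ = b' * (b * v * b⁻¹) * b'⁻¹ := by rw [hbe]
      _ = (b' * b) * v * (b' * b)⁻¹ := by group
  · have h2 : ⁅dd V, B⁆ = ⊥ := by
      rw [commutator_eq_bot_iff_le_centralizer, le_centralizer_iff]
      exact inf_le_right
    rw [h2, commutator_bot_left]

/-- **normal subgroups of `X` in `C_Q(D)` are centralised by `O²(X)`** -/
theorem central_of_le [Finite X] (hFF : AStmt.{u}) {N : Subgroup X} [N.Normal] (hN : N ≤ pCore 2 X)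
    (hc : N ≤ centralizer ((dd V : Subgroup X) : Set X)) : ⁅N, OO X⁆ = ⊥ := by
  by_contra hne
  have h1 := noOver_normal hFF h.min (N := N) ((Lib.Cores.pCore_isPGroup 2).to_le hN) hne h.VT h.el
  have h2 : (centralizer (V : Set X)).relIndex N ≤
      (centralizer (V : Set X)).relIndex (pCore 2 X ⊓ centralizer ((dd V : Subgroup X) : Set X)) :=
    relIndex_le_of_le_right (le_inf hN hc) (relIndex_pos' _ _).ne'
  have h3 := h.sq_lt
  have h4 := relIndex_pos' (centralizer (V : Set X)) (pCore 2 X ⊓ centralizer ((dd V : Subgroup X) : Set X))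
  set r := (centralizer (V : Set X)).relIndex (pCore 2 X ⊓ centralizer ((dd V : Subgroup X) : Set X))
  have h5 : r ≤ r ^ 2 := Nat.le_self_pow two_ne_zero r
  omega

theorem OO_le_ncl [Finite X] : OO X ≤ normalClosure (V : Set X) := by
  rcases inf_le_or h.min (normalClosure (V : Set X)) with h1 | h1
  · exact absurd ((le_inf h.VT subset_normalClosure).trans h1) h.VQ
  · exact h1

end Dit

/-- `U = ⟨D^X⟩` -/
abbrev uu (V : Subgroup X) : Subgroup X := normalClosure ((dd V : Subgroup X) : Set X)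

namespace Dit

variable {T : Sylow 2 X} {M V : Subgroup X} (h : Dit T M V)
include h

theorem uu_le : uu V ≤ pCore 2 X := normalClosure_le_normal inf_le_right

theorem uu_isPGroup [Finite X] : IsPGroup 2 (uu V) := (Lib.Cores.pCore_isPGroup 2).to_le h.uu_le

theorem comm_Q_ncl : ⁅pCore 2 X, normalClosure (V : Set X)⁆ ≤ uu V := by
  refine comm_normalClosure_le ?_
  rw [commutator_comm]
  exact (h.comm_V_le le_rfl).trans subset_normalClosure

theorem comm_Q_OO [Finite X] : ⁅pCore 2 X, OO X⁆ ≤ uu V :=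
  (commutator_mono le_rfl h.OO_le_ncl).trans h.comm_Q_ncl

theorem OO_ne [Finite X] : ¬ OO X ≤ pCore 2 X := by
  intro h1
  have hT : (T : Subgroup X) = ⊤ := by
    rw [eq_top_iff, ← OO_sup T]
    exact sup_le (h1.trans (pCore_le T)) le_rfl
  have htop : pCore 2 X = ⊤ := by
    rw [eq_top_iff, ← hT]
    have hn : (T : Subgroup X).Normal := by rw [hT]; infer_instance
    exact Lib.Cores.le_pCore hn T.isPGroup'
  exact h.VQ (by rw [htop]; exact le_top)

theorem Q_noncentral [Finite X] : ⁅pCore 2 X, OO X⁆ ≠ ⊥ := by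
  intro h1
  rw [commutator_eq_bot_iff_le_centralizer, le_centralizer_iff] at h1
  exact h.OO_ne (h1.trans h.c2)

/-- **`U` is not centralised by `O²(X)`** -/
theorem U_noncentral [Finite X] : ⁅uu V, OO X⁆ ≠ ⊥ := fun h1 =>
  h.Q_noncentral (comm_eq_bot_of_le (Lib.Cores.pCore_isPGroup 2) h.comm_Q_OO h1)

/-- `|U : C_U(V)| ≥ q` -/
theorem le_U [Finite X] (hFF : AStmt.{u}) :
    (pCore 2 X).relIndex V ≤ (centralizer (V : Set X)).relIndex (uu V) :=
  noOver_normal hFF h.min h.uu_isPGroup h.U_noncentral h.VT h.el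

end Dit

end

end Cfsg.Agent.Qrc
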