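import Cfsg.Agent.Qrc.DTwo

/-!
# S1824 (qrc-lemma), case `V ≰ O₂(H)`, `U = ⟨(V ∩ O₂(H))^H⟩` of class 2 modulo the centre (helper55)

The Chermak-Delgado measure `|B| |C_U(B)|` of the subgroups of `U`: the largest maximal `W` is normal in `X`, it is not
centralised by `O²(X)`, and `|D : C_D(W)| ≤ |W : C_W(D)|`.

* `Dit.false_of_comm` : `[D, U] ≤ C(⟨V^X⟩)` is impossible;
* `Dit.class_two` : `[U, U] ≤ C(O²(X))` is impossible.
-/

set_option autoImplicit false
set_option linter.unusedVariables false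
set_option linter.unusedSectionVars false

namespace Cfsg.Agent.Qrc

open Subgroup Cfsg Cfsg.Agent.MinSimple.MinParabolic Cfsg.Agent.Omega.FFBr Cfsg.Agent.QrcE
open Cfsg.Agent.PLocal.ThompsonJ
open Cfsg.Agent.ZN.ChoiceBase (cj mem_cj cj_mono cj_le_iff cj_inv_cj cj_cj_inv card_cj cj_inf cj_centralizer
  isElementaryAbelian_cj)
open scoped commutatorElement

universe u

section

variable {X : Type u} [Group X]

/-- `|B| |C_U(B)|` -/
noncomputable def cd (U B : Subgroup X) : ℕ := Nat.card B * Nat.card ↥(U ⊓ centralizer (B : Set X))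

theorem cd_sup [Finite X] (U B D : Subgroup X) : cd U B * cd U D ≤ cd U (B ⊔ D) * cd U (B ⊓ D) := by
  have h1 : Nat.card B * Nat.card D ≤ Nat.card ↥(B ⊓ D) * Nat.card ↥(B ⊔ D) :=
    Cfsg.Agent.PLocal.Timmesfeld.card_mul_card_le le_sup_left le_sup_right
  have h2 : Nat.card ↥(U ⊓ centralizer (B : Set X)) * Nat.card ↥(U ⊓ centralizer (D : Set X)) ≤
      Nat.card ↥((U ⊓ centralizer (B : Set X)) ⊓ (U ⊓ centralizer (D : Set X))) *
        Nat.card ↥(U ⊓ centralizer ((B ⊓ D : Subgroup X) : Set X)) :=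
    Cfsg.Agent.PLocal.Timmesfeld.card_mul_card_le
      (inf_le_inf_left _ (centralizer_le (SetLike.coe_subset_coe.2 inf_le_left)))
      (inf_le_inf_left _ (centralizer_le (SetLike.coe_subset_coe.2 inf_le_right)))
  have h3 : (U ⊓ centralizer (B : Set X)) ⊓ (U ⊓ centralizer (D : Set X)) ≤
      U ⊓ centralizer ((B ⊔ D : Subgroup X) : Set X) := by
    refine le_inf (inf_le_left.trans inf_le_left) ?_
    rw [le_centralizer_iff]
    refine sup_le ?_ ?_
    · rw [le_centralizer_iff]
      exact inf_le_left.trans inf_le_right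
    · rw [le_centralizer_iff]
      exact inf_le_right.trans inf_le_right
  have h4 := card_le_of_le h3
  unfold cd
  calc Nat.card B * Nat.card ↥(U ⊓ centralizer (B : Set X)) * (Nat.card D * Nat.card ↥(U ⊓ centralizer (D : Set X)))
      = (Nat.card B * Nat.card D) *
        (Nat.card ↥(U ⊓ centralizer (B : Set X)) * Nat.card ↥(U ⊓ centralizer (D : Set X))) := by ring
    _ ≤ (Nat.card ↥(B ⊓ D) * Nat.card ↥(B ⊔ D)) *
        (Nat.card ↥(U ⊓ centralizer ((B ⊔ D : Subgroup X) : Set X)) *
          Nat.card ↥(U ⊓ centralizer ((B ⊓ D : Subgroup X) : Set X))) :=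
        Nat.mul_le_mul h1 (h2.trans (Nat.mul_le_mul_right _ h4))
    _ = _ := by ring

theorem cd_pos [Finite X] (U B : Subgroup X) : 0 < cd U B := Nat.mul_pos Nat.card_pos Nat.card_pos

theorem cd_cj [Finite X] (U : Subgroup X) [U.Normal] (g : X) (B : Subgroup X) : cd U (cj g B) = cd U B := by
  have h1 : U = cj g U := by
    ext x
    rw [mem_cj]
    constructor
    · intro hx
      have := (inferInstance : U.Normal).conj_mem x hx g⁻¹
      simpa using this
    · intro hx
      have := (inferInstance : U.Normal).conj_mem _ hx g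
      simpa [mul_assoc] using this
  unfold cd
  rw [card_cj]
  congr 1
  have h2 : U ⊓ centralizer ((cj g B : Subgroup X) : Set X) = cj g (U ⊓ centralizer (B : Set X)) := by
    rw [cj_inf, ← cj_centralizer, ← h1]
  rw [h2, card_cj]

/-- the largest subgroup of the Chermak-Delgado lattice -/
theorem exists_cd [Finite X] (U : Subgroup X) [hU : U.Normal] :
    ∃ W : Subgroup X, W ≤ U ∧ W.Normal ∧ (∀ B ≤ U, cd U B ≤ cd U W) ∧ ∀ B ≤ U, cd U W ≤ cd U B → B ≤ W := by
  obtain ⟨A, hA, hAmax⟩ := Set.exists_max_image {B : Subgroup X | B ≤ U} (cd U) (Set.toFinite _) ⟨U, le_refl U⟩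
  obtain ⟨W, hW, hWmax⟩ := Set.exists_max_image {B : Subgroup X | B ≤ U ∧ cd U A ≤ cd U B} (fun B => Nat.card B)
    (Set.toFinite _) ⟨A, hA, le_rfl⟩
  have hWU : W ≤ U := hW.1
  have h1 : ∀ B ≤ U, cd U B ≤ cd U W := fun B hB => (hAmax B hB).trans hW.2
  have h2 : ∀ B ≤ U, cd U W ≤ cd U B → B ≤ W := by
    intro B hB hle
    have h3 := cd_sup U B W
    have h4 := h1 (B ⊓ W) (inf_le_left.trans hB)
    have h5 : cd U W ≤ cd U (B ⊔ W) := by
      refine Nat.le_of_mul_le_mul_right (c := cd U W) ?_ (cd_pos U W)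
      calc cd U W * cd U W ≤ cd U B * cd U W := Nat.mul_le_mul_right _ hle
        _ ≤ cd U (B ⊔ W) * cd U (B ⊓ W) := h3
        _ ≤ cd U (B ⊔ W) * cd U W := Nat.mul_le_mul_left _ h4
    have h6 := hWmax (B ⊔ W) ⟨sup_le hB hWU, hW.2.trans h5⟩
    have h7 : W = B ⊔ W := eq_of_le_of_card_ge le_sup_right h6
    rw [h7]
    exact le_sup_left
  refine ⟨W, hWU, ⟨fun n hn g => ?_⟩, h1, h2⟩
  have h3 : cj g W ≤ U := by
    rintro _ ⟨w, hw, rfl⟩
    exact hU.conj_mem w (hWU hw) g
  have h4 : cj g W ≤ W := h2 _ h3 (le_of_eq (cd_cj U g W).symm)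
  exact h4 ⟨n, hn, rfl⟩

/-- `C_U(W) ≤ W` for the largest subgroup of the lattice -/
theorem cd_cent_le [Finite X] {U W : Subgroup X} (hWU : W ≤ U) (h2 : ∀ B ≤ U, cd U W ≤ cd U B → B ≤ W) :
    U ⊓ centralizer (W : Set X) ≤ W := by
  refine h2 _ inf_le_left ?_
  unfold cd
  rw [mul_comm (Nat.card W)]
  refine Nat.mul_le_mul_left _ (card_le_of_le (le_inf hWU ?_))
  rw [le_centralizer_iff]
  exact inf_le_right

/-- `|D : C_D(W)| ≤ |W : C_W(D)|` -/
theorem cd_index_le [Finite X] {U W D : Subgroup X} (hWU : W ≤ U) (hDU : D ≤ U) (h1 : ∀ B ≤ U, cd U B ≤ cd U W) :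
    (centralizer (W : Set X)).relIndex D ≤ (centralizer (D : Set X)).relIndex W := by
  have h2 := h1 (W ⊓ centralizer (D : Set X)) (inf_le_left.trans hWU)
  unfold cd at h2
  have h3 := card_inf_mul_relIndex D (centralizer (W : Set X))
  have h4 := card_inf_mul_relIndex W (centralizer (D : Set X))
  have h5 : Nat.card D * Nat.card ↥(U ⊓ centralizer (W : Set X)) ≤
      Nat.card ↥(D ⊓ (U ⊓ centralizer (W : Set X))) *
        Nat.card ↥(U ⊓ centralizer ((W ⊓ centralizer (D : Set X) : Subgroup X) : Set X)) :=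
    Cfsg.Agent.PLocal.Timmesfeld.card_mul_card_le
      (le_inf hDU (le_centralizer_iff.1 inf_le_right))
      (inf_le_inf_left _ (centralizer_le (SetLike.coe_subset_coe.2 inf_le_left)))
  rw [← inf_assoc, inf_eq_left.2 hDU] at h5
  have p1 : 0 < Nat.card ↥(D ⊓ centralizer (W : Set X)) := Nat.card_pos
  have p2 : 0 < Nat.card ↥(W ⊓ centralizer (D : Set X)) := Nat.card_pos
  have p3 : 0 < Nat.card ↥(U ⊓ centralizer (W : Set X)) := Nat.card_pos
  set i := (centralizer (W : Set X)).relIndex D
  set j := (centralizer (D : Set X)).relIndex W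
  set c := Nat.card ↥(U ⊓ centralizer (W : Set X))
  set c' := Nat.card ↥(U ⊓ centralizer ((W ⊓ centralizer (D : Set X) : Subgroup X) : Set X))
  set d := Nat.card ↥(D ⊓ centralizer (W : Set X))
  set w := Nat.card ↥(W ⊓ centralizer (D : Set X))
  -- `w c' ≤ |W| c`, `w j = |W|`, `d i = |D|`, `|D| c ≤ d c'`
  rw [← h3, mul_assoc] at h5
  have h6 : i * c ≤ c' := Nat.le_of_mul_le_mul_left h5 p1
  rw [← h4, mul_assoc] at h2
  have h7 : c' ≤ j * c := Nat.le_of_mul_le_mul_left h2 p2
  exact Nat.le_of_mul_le_mul_right (h6.trans h7) p3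

namespace Dit

variable {T : Sylow 2 X} {M V : Subgroup X} (h : Dit T M V)
include h

theorem D_le_U : dd V ≤ uu V := subset_normalClosure

theorem U_le_ncl : uu V ≤ normalClosure (V : Set X) :=
  normalClosure_le_normal (fun x hx => subset_normalClosure hx.1)

/-- **`[D, U] ≤ C(⟨V^X⟩)` is impossible** -/
theorem false_of_comm [Finite X] (hFF : AStmt.{u})
    (hc : ⁅dd V, uu V⁆ ≤ centralizer ((normalClosure (V : Set X) : Subgroup X) : Set X)) : False := by
  set U := uu V with hU
  set D := dd V with hD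
  set N : Subgroup X := normalClosure (V : Set X) with hN
  have hVN : V ≤ N := subset_normalClosure
  have hCN : (centralizer (N : Set X)).Normal := normal_centralizer
  have hUU : ⁅U, U⁆ ≤ centralizer (N : Set X) := by
    refine comm_normalClosure_le (A := U) (S := D) ?_
    rw [commutator_comm]
    exact hc
  have hCV : centralizer (N : Set X) ≤ centralizer (V : Set X) := centralizer_le hVN
  have hUV : ⁅U, U⁆ ≤ centralizer (V : Set X) := hUU.trans hCV
  have hUQ : U ≤ pCore 2 X := h.uu_le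
  obtain ⟨W, hWU, hWn, hW1, hW2⟩ := exists_cd U
  -- `W` is not centralised by `O²(X)`
  have hWne : ⁅W, OO X⁆ ≠ ⊥ := by
    intro h1
    have h2 : ⁅⁅OO X, U⁆, W⁆ = ⊥ := by
      refine commutator_commutator_eq_bot_of_rotate ?_ ?_
      · rw [← le_bot_iff, ← h1]
        exact commutator_mono (commutator_le_right U W) le_rfl
      · rw [h1, commutator_bot_left]
    have h3 : ⁅U, OO X⁆ ≤ W := by
      refine le_trans (le_inf (commutator_le_left _ _) ?_) (cd_cent_le hWU hW2)
      rw [commutator_comm, ← commutator_eq_bot_iff_le_centralizer]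
      exact h2
    apply h.U_noncentral
    rw [← comm_comm_eq h.uu_isPGroup, ← le_bot_iff, ← h1]
    exact commutator_mono h3 le_rfl
  have hq := noOver_normal hFF h.min (N := W) (h.uu_isPGroup.to_le hWU) hWne h.VT h.el
  have hDW := cd_index_le hWU h.D_le_U hW1
  have hne : ¬ W ≤ centralizer (V : Set X) := by
    intro h1
    rw [relIndex_eq_one.2 h1] at hq
    exact absurd h.one_lt (not_lt_of_ge hq)
  have hcom : ∀ b ∈ W, ∀ b' ∈ W, b * b' * b⁻¹ * b'⁻¹ ∈ centralizer (V : Set X) := fun b hb b' hb' =>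
    hUV (commutator_mem_commutator (hWU hb) (hWU hb'))
  have hUN : U ≤ normalizer (V : Set X) := h.U_le_N
  have hsqU : ∀ b ∈ U, b ^ 2 ∈ centralizer (V : Set X) := by
    let K : Subgroup X :=
      { carrier := {b | b ∈ U ∧ b ^ 2 ∈ centralizer (V : Set X)}
        one_mem' := ⟨one_mem _, by rw [one_pow]; exact one_mem _⟩
        mul_mem' := by
          rintro a b ⟨ha, ha1⟩ ⟨hb, hb1⟩
          refine ⟨mul_mem ha hb, ?_⟩
          have e : (a * b) ^ 2 = ⁅a, b⁆ * (b * a * a * b⁻¹) * b ^ 2 := by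
            rw [pow_two, pow_two, commutatorElement_def]; group
          have e2 : b * a * a * b⁻¹ = ⁅b, a ^ 2⁆ * a ^ 2 := by
            rw [pow_two, commutatorElement_def]; group
          rw [e, e2]
          exact mul_mem (mul_mem (hUV (commutator_mem_commutator ha hb))
            (mul_mem (hUV (commutator_mem_commutator hb (pow_mem ha 2))) ha1)) hb1
        inv_mem' := by
          rintro b ⟨hb, hb1⟩
          refine ⟨inv_mem hb, ?_⟩
          rw [inv_pow]
          exact inv_mem hb1 }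
    have hK : U ≤ K := by
      rw [hU, h.mem_uu_iff_closure, closure_le]
      rintro x ⟨g, hx⟩
      refine ⟨h.mem_uu hx, ?_⟩
      rw [(isElementaryAbelian_iff.1 (h.elcj g)).2 x hx]
      exact one_mem _
    exact fun b hb => (hK hb).2
  have hcub : ⁅⁅D, W⁆, W⁆ = ⊥ := by
    rw [commutator_eq_bot_iff_le_centralizer]
    refine (commutator_mono le_rfl hWU).trans (hc.trans (centralizer_le ?_))
    exact SetLike.coe_subset_coe.2 (hWU.trans h.U_le_ncl)
  have h1 := h.neg (hWU.trans hUQ) hne (fun b hb => hsqU b (hWU hb)) hcom hcub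
  have h2 : (centralizer (D : Set X)).relIndex W ≤ (centralizer (V : Set X)).relIndex W :=
    relIndex_le_of_le_left (centralizer_le (SetLike.coe_subset_coe.2 inf_le_left)) (relIndex_pos' _ _).ne'
  have h3 : (pCore 2 X).relIndex V * (centralizer (W : Set X)).relIndex D ≤
      ((centralizer (V : Set X)).relIndex W) ^ 2 := by
    rw [pow_two]
    exact Nat.mul_le_mul hq (hDW.trans h2)
  exact absurd h1 (not_lt_of_ge h3)

/-- **`[D, U] ≤ C(O²(X))` is impossible** -/
theorem class_two' [Finite X] (hFF : AStmt.{u}) (hc : ⁅dd V, uu V⁆ ≤ centralizer (OO X : Set X)) : False := by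
  refine h.false_of_comm hFF ?_
  set E := ⁅dd V, uu V⁆ with hE
  have h1 : OO X ≤ centralizer (E : Set X) := le_centralizer_iff.1 hc
  have h2 : (T : Subgroup X) ≤ normalizer (E : Set X) := by
    intro t ht
    have h3 : cj t E = E := by
      rw [hE]
      change (⁅dd V, uu V⁆).map _ = _
      rw [map_commutator]
      have h4 : (dd V).map (MulAut.conj t).toMonoidHom = dd V := by
        have := h.T_le_dd ht
        rwa [mem_normalizer_iff_map_conj_eq] at this
      have h5 : (uu V).map (MulAut.conj t).toMonoidHom = uu V := by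
        have : t ∈ normalizer ((uu V : Subgroup X) : Set X) := by
          rw [normalizer_eq_top]; trivial
        rwa [mem_normalizer_iff_map_conj_eq] at this
      rw [h4, h5]
    rw [mem_normalizer_iff_map_conj_eq]
    exact h3
  have h3 : E.Normal := by
    rw [← normalizer_eq_top_iff, eq_top_iff, ← OO_sup T]
    exact sup_le (h1.trans (centralizer_le_normalizer _)) h2
  have h4 : E ≤ V := by
    exact (comm_le_of_norm (h.uu_le.trans h.Q_le_dd)).trans (inf_le_left : dd V ≤ V)
  have h5 : V ≤ centralizer (E : Set X) := by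
    intro v hv
    rw [mem_centralizer_iff]
    exact fun e he => (isElementaryAbelian_iff.1 h.el).1 e (h4 he) v hv
  have h6 : (centralizer (E : Set X)).Normal := normal_centralizer
  rw [le_centralizer_iff]
  exact normalClosure_le_normal h5

/-- **`[U, U] ≤ C(O²(X))` is impossible** -/
theorem class_two [Finite X] (hFF : AStmt.{u}) (hc : ⁅uu V, uu V⁆ ≤ centralizer (OO X : Set X)) : False :=
  h.class_two' hFF ((commutator_mono h.D_le_U le_rfl).trans hc)

end Dit

end

end Cfsg.Agent.Qrc
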