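import Cfsg.Agent.Qrc.DBase

/-!
# S1824 (qrc-lemma), case `V ≰ O₂(H)`: `|V : V ∩ O₂(H)| ≥ 8` (helper55)
-/

set_option autoImplicit false
set_option linter.unusedVariables false
set_option linter.unusedSectionVars false

namespace Cfsg.Agent.Qrc

open Subgroup Cfsg Cfsg.Agent.MinSimple.MinParabolic Cfsg.Agent.Omega.FFBr Cfsg.Agent.QrcE
open Cfsg.Agent.PLocal.ThompsonJ
open Cfsg.Agent.ZN.ChoiceBase (cj mem_cj cj_mono cj_le_iff cj_inv_cj cj_cj_inv card_cj cj_inf cj_centralizer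
  isElementaryAbelian_cj)
open scoped commutatorElement

universe u

/-- a 2-group of order `> 2` generated by a conjugation invariant set of involutions contains two different
commuting ones -/
theorem exists_comm_pair {P : Type*} [Group P] [Finite P] (hP : IsPGroup 2 P) {S : Set P}
    (hS : ∀ s ∈ S, ∀ g : P, g * s * g⁻¹ ∈ S) (hgen : closure S = ⊤) (hcard : 2 < Nat.card P)
    (hS2 : ∀ s ∈ S, s ^ 2 = 1) :
    ∃ s ∈ S, ∃ s' ∈ S, s ≠ 1 ∧ s' ≠ 1 ∧ s ≠ s' ∧ s * s' = s' * s := by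
  have : Fact (Nat.Prime 2) := ⟨Nat.prime_two⟩
  by_cases hc : ∃ s ∈ S, s ∉ center P
  · obtain ⟨s, hs, hsc⟩ := hc
    have hnil : Group.IsNilpotent P := hP.isNilpotent
    have hC : centralizer ({s} : Set P) < ⊤ := by
      refine lt_top_iff_ne_top.2 fun h1 => hsc ?_
      rw [mem_center_iff]
      intro g
      have h2 : g ∈ centralizer ({s} : Set P) := by rw [h1]; trivial
      exact (mem_centralizer_iff.1 h2 s rfl).symm
    obtain ⟨g, hgN, hgC⟩ := SetLike.exists_of_lt (Group.normalizerCondition_of_isNilpotent _ hC)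
    have hs1 : s ≠ 1 := by
      rintro rfl
      exact hsc (one_mem _)
    have hsC : s ∈ centralizer ({s} : Set P) := by
      rw [mem_centralizer_iff]
      rintro _ rfl
      rfl
    have h2 : g * s * g⁻¹ ∈ centralizer ({s} : Set P) := (mem_normalizer_iff.1 hgN s).1 hsC
    refine ⟨s, hs, g * s * g⁻¹, hS s hs g, hs1, fun h3 => hs1 ?_, fun h3 => hgC ?_, mem_centralizer_iff.1 h2 s rfl⟩
    · rwa [conj_eq_one_iff] at h3
    · rw [mem_centralizer_iff]
      rintro _ rfl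
      rw [eq_mul_inv_iff_mul_eq] at h3
      exact h3
  · push Not at hc
    have h1 : ∃ s ∈ S, s ≠ 1 := by
      by_contra hcon
      push Not at hcon
      have h2 : closure S ≤ ⊥ := (closure_le _).2 fun s hs => by
        rw [hcon s hs]; exact one_mem _
      rw [hgen] at h2
      have h3 : Nat.card P ≤ 1 := by
        rw [← card_top (G := P), ← card_bot (G := P)]
        exact card_le_of_le h2
      omega
    obtain ⟨s, hs, hs1⟩ := h1
    have h2 : ∃ s' ∈ S, s' ≠ 1 ∧ s ≠ s' := by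
      by_contra hcon
      push Not at hcon
      have h2 : closure S ≤ zpowers s := (closure_le _).2 fun s' hs' => by
        by_cases h3 : s' = 1
        · rw [h3]; exact one_mem _
        · rw [← hcon s' hs' h3]; exact mem_zpowers s
      rw [hgen] at h2
      have h3 : Nat.card P ≤ orderOf s := by
        rw [← card_top (G := P), ← Nat.card_zpowers]
        exact card_le_of_le h2
      have h4 : orderOf s ≤ 2 := orderOf_le_of_pow_eq_one two_pos (hS2 s hs)
      omega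
    obtain ⟨s', hs', hs'1, hne⟩ := h2
    exact ⟨s, hs, s', hs', hs1, hs'1, hne, (mem_center_iff.1 (hc s hs) s').symm⟩

section

variable {X : Type u} [Group X]

theorem mul_mem_of_relIndex_le_two [Finite X] {K D : Subgroup X} (h : K.relIndex D ≤ 2) {a b : X} (ha : a ∈ D)
    (hb : b ∈ D) (ha' : a ∉ K) (hb' : b ∉ K) : a * b ∈ K := by
  have h0 := relIndex_pos' K D
  have h1 : K.relIndex D ≠ 1 := fun h1 => ha' (relIndex_eq_one.1 h1 ha)
  have h2 : (K.subgroupOf D).index = 2 := by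
    change K.relIndex D = 2
    omega
  have h3 := (mul_mem_iff_of_index_two h2 (a := ⟨a, ha⟩) (b := ⟨b, hb⟩)).2
    (by simp only [mem_subgroupOf]; tauto)
  exact h3

/-- two commuting involutions on `V` -/
theorem act_pair {V B : Subgroup X} (hBV : B ≤ normalizer (V : Set X)) {s s' : X} (hB : B = closure {s, s'})
    (h1 : s ^ 2 ∈ centralizer (V : Set X)) (h2 : s' ^ 2 ∈ centralizer (V : Set X))
    (h3 : s * s' * s⁻¹ * s'⁻¹ ∈ centralizer (V : Set X)) :
    (∀ b ∈ B, ∀ b' ∈ B, b * b' * b⁻¹ * b'⁻¹ ∈ centralizer (V : Set X)) ∧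
      ∀ b ∈ B, b ^ 2 ∈ centralizer (V : Set X) := by
  have hsB : s ∈ B := hB ▸ subset_closure (by simp)
  have hsB' : s' ∈ B := hB ▸ subset_closure (by simp)
  set C := centralizer (V : Set X) with hC
  have hCn : ∀ x ∈ normalizer (V : Set X), ∀ c ∈ C, x * c * x⁻¹ ∈ C := by
    intro x hx c hc
    rw [mem_centralizer_iff] at hc ⊢
    intro v hv
    have h4 : x⁻¹ * v * x ∈ V := by
      have := (mem_normalizer_iff.1 (inv_mem hx) v).1 hv
      simpa using this
    have h5 := hc _ h4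
    have e1 : v * (x * c * x⁻¹) = x * ((x⁻¹ * v * x) * c) * x⁻¹ := by group
    have e2 : x * c * x⁻¹ * v = x * (c * (x⁻¹ * v * x)) * x⁻¹ := by group
    rw [e1, e2, h5]
  -- `K t` : elements of `B` commuting with `t` mod `C`
  have key : ∀ t ∈ B, s * t * s⁻¹ * t⁻¹ ∈ C → s' * t * s'⁻¹ * t⁻¹ ∈ C → ∀ b ∈ B, b * t * b⁻¹ * t⁻¹ ∈ C := by
    intro t ht ha ha'
    let K : Subgroup X :=
      { carrier := {b | b ∈ B ∧ b * t * b⁻¹ * t⁻¹ ∈ C}
        one_mem' := ⟨one_mem _, by rw [show (1 : X) * t * 1⁻¹ * t⁻¹ = 1 by group]; exact one_mem _⟩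
        mul_mem' := by
          rintro a b ⟨ha, ha1⟩ ⟨hb, hb1⟩
          refine ⟨mul_mem ha hb, ?_⟩
          have e : a * b * t * (a * b)⁻¹ * t⁻¹ = (a * (b * t * b⁻¹ * t⁻¹) * a⁻¹) * (a * t * a⁻¹ * t⁻¹) := by
            group
          rw [e]
          exact mul_mem (hCn a (hBV ha) _ hb1) ha1
        inv_mem' := by
          rintro b ⟨hb, hb1⟩
          refine ⟨inv_mem hb, ?_⟩
          have e : b⁻¹ * t * b⁻¹⁻¹ * t⁻¹ = b⁻¹ * (b * t * b⁻¹ * t⁻¹)⁻¹ * b⁻¹⁻¹ := by group
          rw [e]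
          exact hCn _ (inv_mem (hBV hb)) _ (inv_mem hb1) }
    have hK : B ≤ K := by
      rw [hB, closure_le]
      rintro x (rfl | rfl)
      · exact ⟨hsB, ha⟩
      · exact ⟨hsB', ha'⟩
    exact fun b hb => (hK hb).2
  have h3' : s' * s * s'⁻¹ * s⁻¹ ∈ C := by
    have := inv_mem h3
    have e : (s * s' * s⁻¹ * s'⁻¹)⁻¹ = s' * s * s'⁻¹ * s⁻¹ := by group
    rwa [e] at this
  have k1 : ∀ b ∈ B, b * s * b⁻¹ * s⁻¹ ∈ C :=
    key s hsB (by rw [show s * s * s⁻¹ * s⁻¹ = 1 by group]; exact one_mem _) h3'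
  have k2 : ∀ b ∈ B, b * s' * b⁻¹ * s'⁻¹ ∈ C :=
    key s' hsB' h3 (by rw [show s' * s' * s'⁻¹ * s'⁻¹ = 1 by group]; exact one_mem _)
  have inv' : ∀ x y : X, x * y * x⁻¹ * y⁻¹ ∈ C → y * x * y⁻¹ * x⁻¹ ∈ C := by
    intro x y hxy
    have := inv_mem hxy
    have e : (x * y * x⁻¹ * y⁻¹)⁻¹ = y * x * y⁻¹ * x⁻¹ := by group
    rwa [e] at this
  have k3 : ∀ b ∈ B, ∀ b' ∈ B, b * b' * b⁻¹ * b'⁻¹ ∈ C := by
    intro b hb b' hb'
    exact key b' hb' (inv' _ _ (k1 b' hb')) (inv' _ _ (k2 b' hb')) b hb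
  refine ⟨k3, ?_⟩
  let K : Subgroup X :=
    { carrier := {b | b ∈ B ∧ b ^ 2 ∈ C}
      one_mem' := ⟨one_mem _, by rw [one_pow]; exact one_mem _⟩
      mul_mem' := by
        rintro a b ⟨ha, ha1⟩ ⟨hb, hb1⟩
        refine ⟨mul_mem ha hb, ?_⟩
        have e : (a * b) ^ 2 = (a * (b * a * b⁻¹ * a⁻¹) * a⁻¹) * (a ^ 2 * b ^ 2) := by
          rw [pow_two, pow_two, pow_two]; group
        rw [e]
        exact mul_mem (hCn a (hBV ha) _ (k3 b hb a ha)) (mul_mem ha1 hb1)
      inv_mem' := by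
        rintro b ⟨hb, hb1⟩
        refine ⟨inv_mem hb, ?_⟩
        rw [inv_pow]
        exact inv_mem hb1 }
  have hK : B ≤ K := by
    rw [hB, closure_le]
    rintro x (rfl | rfl)
    · exact ⟨hsB, h1⟩
    · exact ⟨hsB', h2⟩
  exact fun b hb => (hK hb).2

theorem relIndex_two_pow [Finite X] {B : Subgroup X} (hB : IsPGroup 2 B) (A : Subgroup X) :
    ∃ n : ℕ, A.relIndex B = 2 ^ n := by
  have : Fact (Nat.Prime 2) := ⟨Nat.prime_two⟩
  exact (hB.index (A.subgroupOf B))

namespace Dit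

variable {T : Sylow 2 X} {M V : Subgroup X} (h : Dit T M V)
include h

theorem isP [Finite X] : IsPGroup 2 V := T.isPGroup'.to_le h.VT

theorem q_two_pow [Finite X] : ∃ n : ℕ, (pCore 2 X).relIndex V = 2 ^ n := relIndex_two_pow h.isP _

theorem Q_le_N : pCore 2 X ≤ normalizer (V : Set X) := (pCore_le T).trans h.TV

theorem U_le_N : uu V ≤ normalizer (V : Set X) := h.uu_le.trans h.Q_le_N

/-- an element of `X` with `s ∈ D^g` -/
theorem mem_uu {g s : X} (hs : s ∈ cj g (dd V)) : s ∈ uu V := by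
  rw [mem_cj] at hs
  have h1 : g⁻¹ * s * g ∈ uu V := subset_normalClosure hs
  have h2 := (inferInstance : (uu V).Normal).conj_mem _ h1 g
  simpa [mul_assoc] using h2

/-- a pair of commuting involutions -/
theorem pair [Finite X] (hf : ∀ g : X, (centralizer (V : Set X)).relIndex (cj g (dd V)) ≤ 2)
    {s s' g g' : X} (hs : s ∈ cj g (dd V)) (hs' : s' ∈ cj g' (dd V)) (h1 : s ∉ centralizer (V : Set X))
    (h2 : s' ∉ centralizer (V : Set X)) (hne : s * s' ∉ centralizer (V : Set X))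
    (hcom : s * s' * s⁻¹ * s'⁻¹ ∈ centralizer (V : Set X)) : 4 < (pCore 2 X).relIndex V := by
  set C := centralizer (V : Set X) with hC
  set D := dd V with hD
  have hsQ : s ∈ pCore 2 X := h.cj_le_Q g hs
  have hsQ' : s' ∈ pCore 2 X := h.cj_le_Q g' hs'
  have hsq : s * s = 1 := by
    have := (isElementaryAbelian_iff.1 (h.elcj g)).2 s hs
    rwa [pow_two] at this
  have hsq' : s' * s' = 1 := by
    have := (isElementaryAbelian_iff.1 (h.elcj g')).2 s' hs'
    rwa [pow_two] at this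
  set B : Subgroup X := closure {s, s'} with hB
  have hsB : s ∈ B := subset_closure (by simp)
  have hsB' : s' ∈ B := subset_closure (by simp)
  have hBQ : B ≤ pCore 2 X := (closure_le _).2 (by rintro x (rfl | rfl); exacts [hsQ, hsQ'])
  have hBN : B ≤ normalizer (V : Set X) := hBQ.trans h.Q_le_N
  have hBD : B ≤ normalizer (D : Set X) := hBQ.trans h.Q_le_dd
  have hBp : IsPGroup 2 B := (Lib.Cores.pCore_isPGroup 2).to_le hBQ
  have hDe := isElementaryAbelian_iff.1 h.elD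
  -- the centralizer of `s` in `D`
  have idx : ∀ {t k : X}, t ∈ cj k D → (centralizer ({t} : Set X)).relIndex D ≤ 2 := by
    intro t k ht
    have h3 : centralizer ((cj k D : Subgroup X) : Set X) ≤ centralizer ({t} : Set X) :=
      centralizer_le (Set.singleton_subset_iff.2 ht)
    exact ((relIndex_le_of_le_left h3 (relIndex_pos' _ _).ne').trans (h.cent_le k)).trans (hf k⁻¹)
  -- `[D, s]` is centralised by elements commuting with `s` mod `C`
  have act : ∀ {t k : X}, t ∈ cj k D → ∀ b : X, b ∈ pCore 2 X → b * t * b⁻¹ * t⁻¹ ∈ C →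
      ∀ d ∈ D, b * (d * (t * d⁻¹ * t⁻¹)) = d * (t * d⁻¹ * t⁻¹) * b := by
    intro t k ht b hb hbt d hd
    have htQ : t ∈ pCore 2 X := h.cj_le_Q k ht
    have htd : ∀ x ∈ D, t * x * t⁻¹ ∈ D := fun x hx => (mem_normalizer_iff.1 (h.Q_le_dd htQ) x).1 hx
    have hd' : b * d * b⁻¹ ∈ D := (mem_normalizer_iff.1 (h.Q_le_dd hb) d).1 hd
    set d' := b * d * b⁻¹ with hd'e
    set c := b * t * b⁻¹ * t⁻¹ with hc
    have hcD : ∀ x ∈ D, c * x * c⁻¹ = x := by
      intro x hx
      have := mem_centralizer_iff.1 hbt x hx.1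
      rw [← this]
      group
    -- `z^b = [d', t]`
    have e1 : b * (d * (t * d⁻¹ * t⁻¹)) * b⁻¹ = d' * (t * d'⁻¹ * t⁻¹) := by
      calc b * (d * (t * d⁻¹ * t⁻¹)) * b⁻¹ = d' * (c * (t * d'⁻¹ * t⁻¹) * c⁻¹) := by
            rw [hd'e, hc]; group
        _ = d' * (t * d'⁻¹ * t⁻¹) := by rw [hcD _ (htd _ (inv_mem hd'))]
    have e2 : d' * (t * d'⁻¹ * t⁻¹) = d * (t * d⁻¹ * t⁻¹) := by
      by_cases hct : t * d = d * t
      · have e3 : d * (t * d⁻¹ * t⁻¹) = 1 := by
          have : t * d⁻¹ * t⁻¹ = (t * d * t⁻¹)⁻¹ := by group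
          rw [this, hct]
          group
        rw [← e1, e3]
        group
      by_cases hct' : t * d' = d' * t
      · exfalso
        apply hct
        have e3 : d' * (t * d'⁻¹ * t⁻¹) = 1 := by
          have : t * d'⁻¹ * t⁻¹ = (t * d' * t⁻¹)⁻¹ := by group
          rw [this, hct']
          group
        rw [e3] at e1
        have e4 : d * (t * d⁻¹ * t⁻¹) = 1 := by
          have : d * (t * d⁻¹ * t⁻¹) = b⁻¹ * (b * (d * (t * d⁻¹ * t⁻¹)) * b⁻¹) * b := by group
          rw [this, e1]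
          group
        have : d * t = (d * (t * d⁻¹ * t⁻¹)) * (t * d) := by group
        rw [this, e4, one_mul]
      have h3 : d' * d ∈ centralizer ({t} : Set X) := by
        refine mul_mem_of_relIndex_le_two (idx ht) hd' hd (fun h4 => hct' ?_) (fun h4 => hct ?_)
        · exact mem_centralizer_iff.1 h4 t rfl
        · exact mem_centralizer_iff.1 h4 t rfl
      have h4 : t * (d' * d) * t⁻¹ = d' * d := by
        rw [mem_centralizer_iff.1 h3 t rfl]
        group
      have hinv : ∀ x ∈ D, x⁻¹ = x := fun x hx => by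
        have := hDe.2 x hx
        rw [pow_two] at this
        exact inv_eq_of_mul_eq_one_left this
      -- `t d t⁻¹ = d * d' * t d' t⁻¹`
      rw [hinv d' hd', hinv d hd]
      have h5 : t * d' * t⁻¹ * (t * d * t⁻¹) = d' * d := by rw [← h4]; group
      have h6 : t * d * t⁻¹ = (t * d' * t⁻¹) * (d' * d) := by
        rw [← h5]
        have h7 := hDe.2 _ (htd d' hd')
        rw [pow_two] at h7
        rw [← mul_assoc, h7, one_mul]
      have h8 : d * (d' * d) = d' := by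
        rw [hDe.1 d' hd' d hd, ← mul_assoc]
        have := hDe.2 d hd
        rw [pow_two] at this
        rw [this, one_mul]
      rw [h6, hDe.1 (t * d' * t⁻¹) (htd d' hd') (d' * d) (mul_mem hd' hd), ← mul_assoc d, h8]
    rw [← mul_inv_eq_iff_eq_mul, e1, e2]
  have hcom' : s' * s * s'⁻¹ * s⁻¹ ∈ C := by
    have := inv_mem hcom
    have e : (s * s' * s⁻¹ * s'⁻¹)⁻¹ = s' * s * s'⁻¹ * s⁻¹ := by group
    rwa [e] at this
  -- `[D, s], [D, s'] ≤ C(B)`
  have cB : ∀ {t : X}, (∃ k, t ∈ cj k D) → s * t * s⁻¹ * t⁻¹ ∈ C → s' * t * s'⁻¹ * t⁻¹ ∈ C →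
      ∀ d ∈ D, d * (t * d⁻¹ * t⁻¹) ∈ centralizer (B : Set X) := by
    rintro t ⟨k, ht⟩ ha ha' d hd
    rw [← zpowers_le, le_centralizer_iff, hB, closure_le]
    rintro x hx
    have hx' : x * (d * (t * d⁻¹ * t⁻¹)) = d * (t * d⁻¹ * t⁻¹) * x := by
      rcases hx with rfl | rfl
      · exact act ht _ hsQ ha d hd
      · exact act ht _ hsQ' ha' d hd
    change x ∈ centralizer ((zpowers (d * (t * d⁻¹ * t⁻¹)) : Subgroup X) : Set X)
    rw [zpowers_eq_closure, centralizer_closure, mem_centralizer_iff]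
    rintro _ rfl
    exact hx'.symm
  have cBs : ∀ d ∈ D, d * (s * d⁻¹ * s⁻¹) ∈ centralizer (B : Set X) :=
    cB ⟨g, hs⟩ (by rw [show s * s * s⁻¹ * s⁻¹ = 1 by group]; exact one_mem _) hcom'
  have cBs' : ∀ d ∈ D, d * (s' * d⁻¹ * s'⁻¹) ∈ centralizer (B : Set X) :=
    cB ⟨g', hs'⟩ hcom (by rw [show s' * s' * s'⁻¹ * s'⁻¹ = 1 by group]; exact one_mem _)
  have cub : ⁅⁅D, B⁆, B⁆ = ⊥ := by
    rw [commutator_eq_bot_iff_le_centralizer]
    let K : Subgroup X :=
      { carrier := {b | b ∈ B ∧ ∀ d ∈ D, d * (b * d⁻¹ * b⁻¹) ∈ centralizer (B : Set X)}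
        one_mem' := ⟨one_mem _, fun d hd => by
          rw [show d * (1 * d⁻¹ * 1⁻¹) = 1 by group]; exact one_mem _⟩
        mul_mem' := by
          rintro a b ⟨ha, ha1⟩ ⟨hb, hb1⟩
          refine ⟨mul_mem ha hb, fun d hd => ?_⟩
          have h3 := ha1 d hd
          have h4 := hb1 d hd
          have h5 := mem_centralizer_iff.1 h4 a ha
          have e : d * (a * b * d⁻¹ * (a * b)⁻¹) = d * (a * d⁻¹ * a⁻¹) * (a * (d * (b * d⁻¹ * b⁻¹)) * a⁻¹) := by
            group
          rw [e, h5, mul_inv_cancel_right]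
          exact mul_mem h3 h4
        inv_mem' := by
          rintro b ⟨hb, hb1⟩
          refine ⟨inv_mem hb, fun d hd => ?_⟩
          have h4 := hb1 d hd
          have h5 := mem_centralizer_iff.1 h4 b⁻¹ (inv_mem hb)
          have e : d * (b⁻¹ * d⁻¹ * b⁻¹⁻¹) = (b⁻¹ * (d * (b * d⁻¹ * b⁻¹)) * b)⁻¹ := by group
          rw [e, h5]
          have e' : d * (b * d⁻¹ * b⁻¹) * b⁻¹ * b = d * (b * d⁻¹ * b⁻¹) := by group
          rw [e']
          exact inv_mem h4 }
    have hK : B ≤ K := by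
      rw [hB, closure_le]
      rintro x (rfl | rfl)
      · exact ⟨hsB, cBs⟩
      · exact ⟨hsB', cBs'⟩
    rw [commutator_le]
    intro d hd b hb
    have h3 := (hK hb).2 d hd
    rw [commutatorElement_def]
    have e : d * b * d⁻¹ * b⁻¹ = d * (b * d⁻¹ * b⁻¹) := by group
    rw [e]
    exact h3
  -- `|D : C_D(B)| ≤ 4`
  have hD4 : (centralizer (B : Set X)).relIndex D ≤ 4 := by
    have h3 : centralizer ({s} : Set X) ⊓ centralizer ({s'} : Set X) ≤ centralizer (B : Set X) := by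
      rw [hB, centralizer_closure]
      intro x hx
      rw [mem_centralizer_iff]
      rintro y (rfl | rfl)
      · exact mem_centralizer_iff.1 hx.1 _ rfl
      · exact mem_centralizer_iff.1 hx.2 _ rfl
    refine (relIndex_le_of_le_left h3 (relIndex_pos' _ _).ne').trans (relIndex_inf_le.trans ?_)
    exact Nat.mul_le_mul (idx hs) (idx hs')
  -- `|B : C_B(V)| ≥ 4`
  have hB4 : 4 ≤ C.relIndex B := by
    obtain ⟨n, hn⟩ := relIndex_two_pow hBp C
    rcases Nat.lt_or_ge 2 (C.relIndex B) with h3 | h3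
    · rw [hn] at h3 ⊢
      have : 2 ≤ n := by
        by_contra hcon
        interval_cases n <;> simp at h3
      calc 4 = 2 ^ 2 := rfl
        _ ≤ 2 ^ n := Nat.pow_le_pow_right two_pos this
    · exact absurd (mul_mem_of_relIndex_le_two h3 hsB hsB' h1 h2) hne
  obtain ⟨hcomB, hsqB⟩ := act_pair hBN hB (by rw [pow_two, hsq]; exact one_mem _)
    (by rw [pow_two, hsq']; exact one_mem _) hcom
  have h3 := h.neg hBQ (fun h3 => h1 (h3 hsB)) hsqB hcomB cub
  by_contra hcon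
  have h4 : (pCore 2 X).relIndex V * (centralizer (B : Set X)).relIndex D ≤ 4 * 4 :=
    Nat.mul_le_mul (not_lt.1 hcon) hD4
  have h5 : 4 ^ 2 ≤ (C.relIndex B) ^ 2 := Nat.pow_le_pow_left hB4 2
  have h6 : (C.relIndex B) ^ 2 < 4 * 4 := lt_of_lt_of_le h3 h4
  omega

theorem mem_uu_iff_closure : uu V = closure {x : X | ∃ g : X, x ∈ cj g (dd V)} := by
  apply le_antisymm
  · have hN : (closure {x : X | ∃ g : X, x ∈ cj g (dd V)}).Normal := by
      refine ⟨fun n hn k => ?_⟩
      have h1 : closure {x : X | ∃ g : X, x ∈ cj g (dd V)} ≤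
          (closure {x : X | ∃ g : X, x ∈ cj g (dd V)}).comap (MulAut.conj k).toMonoidHom := by
        rw [closure_le]
        rintro x ⟨g, hx⟩
        refine subset_closure ⟨k * g, ?_⟩
        rw [mem_cj] at hx ⊢
        simpa [mul_assoc] using hx
      exact h1 hn
    refine normalClosure_le_normal ?_
    intro x hx
    refine subset_closure ⟨1, ?_⟩
    rw [mem_cj]
    simpa using hx
  · rw [closure_le]
    rintro x ⟨g, hx⟩
    exact h.mem_uu hx

/-- **`|V : V ∩ O₂(X)| ≥ 8`** -/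
theorem eight_le [Finite X] (hFF : AStmt.{u}) : 8 ≤ (pCore 2 X).relIndex V := by
  obtain ⟨n, hn⟩ := h.q_two_pow
  by_contra hcon
  have hn2 : n ≤ 2 := by
    by_contra h1
    apply hcon
    rw [hn]
    calc 8 = 2 ^ 3 := rfl
      _ ≤ 2 ^ n := Nat.pow_le_pow_right two_pos (by omega)
  set C := centralizer (V : Set X) with hC
  set D := dd V with hD
  have hf : ∀ g : X, C.relIndex (cj g D) ≤ 2 := by
    intro g
    have h1 := h.f_lt g
    obtain ⟨k, hk⟩ := relIndex_two_pow ((Lib.Cores.pCore_isPGroup 2).to_le (h.cj_le_Q g)) C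
    change C.relIndex (cj g D) < _ at h1
    rw [hk] at h1 ⊢
    rw [hn] at h1
    have h2 : k < n := (Nat.pow_lt_pow_iff_right (by norm_num)).1 h1
    calc 2 ^ k ≤ 2 ^ 1 := Nat.pow_le_pow_right two_pos (by omega)
      _ = 2 := rfl
  have hU := h.le_U hFF
  change _ ≤ C.relIndex (uu V) at hU
  have hgenU := h.mem_uu_iff_closure
  have hn0 : n ≠ 0 := by
    rintro rfl
    have := h.one_lt
    rw [hn] at this
    simp at this
  have hn1 : n ≠ 1 := by
    rintro rfl
    have h1 : uu V ≤ C := by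
      rw [hgenU, closure_le]
      rintro x ⟨g, hx⟩
      have h2 := h.f_lt g
      rw [hn] at h2
      have h3 := relIndex_pos' C (cj g D)
      have h4 : C.relIndex (cj g D) = 1 := by
        change C.relIndex (cj g D) < _ at h2
        omega
      exact relIndex_eq_one.1 h4 hx
    rw [relIndex_eq_one.2 h1, hn] at hU
    omega
  have hn' : n = 2 := by omega
  subst hn'
  -- the group `U / C_U(V)`
  have hUN : uu V ≤ normalizer (V : Set X) := h.U_le_N
  have hCn : (C.subgroupOf (uu V)).Normal := by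
    refine ⟨fun c hc u => ?_⟩
    rw [mem_subgroupOf] at hc ⊢
    have hx := hUN u.2
    rw [hC, mem_centralizer_iff] at hc ⊢
    intro v hv
    have h4 : (u : X)⁻¹ * v * u ∈ V := by
      have := (mem_normalizer_iff.1 (inv_mem hx) v).1 hv
      simpa using this
    have h5 := hc _ h4
    simp only [coe_mul, InvMemClass.coe_inv]
    have e1 : v * ((u : X) * c * (u : X)⁻¹) = u * (((u : X)⁻¹ * v * u) * c) * (u : X)⁻¹ := by group
    have e2 : (u : X) * c * (u : X)⁻¹ * v = u * (c * ((u : X)⁻¹ * v * u)) * (u : X)⁻¹ := by group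
    rw [e1, e2, h5]
  set π := QuotientGroup.mk' (C.subgroupOf (uu V)) with hπ
  set S : Set (uu V ⧸ C.subgroupOf (uu V)) := π '' {u | ∃ g : X, (u : X) ∈ cj g D} with hS
  have hP : IsPGroup 2 (uu V ⧸ C.subgroupOf (uu V)) := h.uu_isPGroup.to_quotient _
  have hcard : 2 < Nat.card (uu V ⧸ C.subgroupOf (uu V)) := by
    change 2 < C.relIndex (uu V)
    rw [hn] at hU
    omega
  have hSc : ∀ s ∈ S, ∀ g, g * s * g⁻¹ ∈ S := by
    rintro _ ⟨u, ⟨k, hk⟩, rfl⟩ g
    obtain ⟨w, rfl⟩ := QuotientGroup.mk'_surjective _ g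
    refine ⟨w * u * w⁻¹, ⟨w * k, ?_⟩, by rw [map_mul, map_mul, map_inv]⟩
    rw [mem_cj] at hk ⊢
    simpa [mul_assoc] using hk
  have hSg : closure S = ⊤ := by
    rw [eq_top_iff, hS, ← MonoidHom.map_closure, ← MonoidHom.range_eq_top.2 (QuotientGroup.mk'_surjective _),
      MonoidHom.range_eq_map]
    refine map_mono ?_
    rintro ⟨u, hu⟩ -
    have h1 : uu V ≤ (closure {u : uu V | ∃ g : X, (u : X) ∈ cj g D}).map (uu V).subtype := by
      conv_lhs => rw [hgenU]
      rw [closure_le]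
      rintro x ⟨g, hx⟩
      exact ⟨⟨x, h.mem_uu hx⟩, subset_closure ⟨g, hx⟩, rfl⟩
    obtain ⟨y, hy, hyu⟩ := h1 hu
    have : y = ⟨u, hu⟩ := Subtype.ext hyu
    rwa [this] at hy
  have hS2 : ∀ s ∈ S, s ^ 2 = 1 := by
    rintro _ ⟨u, ⟨k, hk⟩, rfl⟩
    rw [← map_pow]
    have h1 : u ^ 2 = 1 := Subtype.ext ((isElementaryAbelian_iff.1 (h.elcj k)).2 _ hk)
    rw [h1, map_one]
  obtain ⟨s, ⟨u, ⟨g, hu⟩, rfl⟩, s', ⟨u', ⟨g', hu'⟩, rfl⟩, h1, h2, h3, h4⟩ := exists_comm_pair hP hSc hSg hcard hS2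
  have hone : ∀ w : uu V, π w = 1 ↔ (w : X) ∈ C := by
    intro w
    rw [← mem_subgroupOf]
    exact QuotientGroup.eq_one_iff w
  refine absurd hn (ne_of_gt ?_)
  refine h.pair hf hu hu' (fun h5 => h1 ((hone u).2 h5)) (fun h5 => h2 ((hone u').2 h5)) ?_ ?_
  · intro h5
    have h6 : π (u * u') = 1 := (hone _).2 h5
    rw [map_mul] at h6
    have h7 := hS2 _ ⟨u, ⟨g, hu⟩, rfl⟩
    rw [pow_two] at h7
    exact h3 (mul_left_cancel (h7.trans h6.symm))
  · have h6 : π (u * u' * u⁻¹ * u'⁻¹) = 1 := by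
      rw [map_mul, map_mul, map_mul, map_inv, map_inv, h4]
      group
    exact (hone _).1 h6

end Dit

end

end Cfsg.Agent.Qrc
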